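import Mathlib
import Cfsg.Agent.Lib.Helper23.NilpParts
import Cfsg.Agent.Lib.Helper61.BG9a

/-!
Lemma Z for the proof of Bender–Glauberman 9.5 (helper46): a subgroup `H` with nilpotent
derived subgroup lies in `He` as soon as `He` contains the centralizer of a `p`-element `e` of
`⁅H, H⁆`, a Sylow `p`-subgroup `P` of the ambient group with `P ≤ H`, and the normalizer of `P`.
-/

set_option autoImplicit false

namespace Cfsg.Agent.Lib.Helper46.BG

open Cfsg
open scoped commutatorElement

universe u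

variable {G : Type u} [Group G]

/-- In a finite group, `h` normalizes `T` as soon as it conjugates `T` into itself. -/
theorem mem_normalizer_of_conj_mem_fin [Finite G] {T : Subgroup G} {h : G}
    (hh : ∀ v ∈ T, h * v * h⁻¹ ∈ T) : h ∈ Subgroup.normalizer (T : Set G) := by
  rw [Subgroup.mem_normalizer_iff]
  intro v
  refine ⟨hh v, fun hv => ?_⟩
  let f : T → T := fun t => ⟨h * t * h⁻¹, hh t t.2⟩
  have hinj : Function.Injective f := by
    intro a b hab
    have h1 : h * (a : G) * h⁻¹ = h * (b : G) * h⁻¹ := congrArg Subtype.val hab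
    apply Subtype.ext
    exact mul_left_cancel (mul_right_cancel h1)
  obtain ⟨t, ht⟩ := (Finite.injective_iff_surjective.mp hinj) ⟨h * v * h⁻¹, hv⟩
  have h1 : h * (t : G) * h⁻¹ = h * v * h⁻¹ := congrArg Subtype.val ht
  have h2 : (t : G) = v := mul_left_cancel (mul_right_cancel h1)
  rw [← h2]
  exact t.2

/-- The derived subgroup of the group `↥H` is nilpotent iff `⁅H, H⁆` is: one direction. -/
theorem isNilpotent_commutator_of_subtype (H : Subgroup G)
    (h : Group.IsNilpotent ↥(commutator ↥H)) : Group.IsNilpotent ↥⁅H, H⁆ := by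
  have heq : (commutator ↥H).map H.subtype = ⁅H, H⁆ := by
    rw [commutator_def, Subgroup.map_commutator, ← MonoidHom.range_eq_map, Subgroup.range_subtype]
  rw [← heq]
  exact Group.nilpotent_of_surjective (H.subtype.subgroupMap (commutator ↥H))
    (MonoidHom.subgroupMap_surjective _ _)

/-- **Lemma Z.** -/
theorem lemma_Z [Finite G] (p : ℕ) [Fact p.Prime] (H He : Subgroup G)
    (hnil : Group.IsNilpotent ↥⁅H, H⁆)
    (e : G) (he : e ∈ ⁅H, H⁆) (hep : IsPGroup p (Subgroup.zpowers e))
    (hCe : Subgroup.centralizer ({e} : Set G) ≤ He)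
    (P : Sylow p G) (hPH : (P : Subgroup G) ≤ H) (hPHe : (P : Subgroup G) ≤ He)
    (hNP : Subgroup.normalizer ((P : Subgroup G) : Set G) ≤ He) : H ≤ He := by
  have hNH : ⁅H, H⁆ ≤ H := by
    rw [Subgroup.commutator_le]
    intro a ha b hb
    exact H.mul_mem (H.mul_mem (H.mul_mem ha hb) (H.inv_mem ha)) (H.inv_mem hb)
  have hconjN : ∀ h ∈ H, ∀ v ∈ ⁅H, H⁆, h * v * h⁻¹ ∈ ⁅H, H⁆ := by
    intro h hh v hv
    have h1 : h * v * h⁻¹ = ⁅h, v⁆ * v := by simp [commutatorElement_def]
    rw [h1]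
    exact Subgroup.mul_mem _ (Subgroup.commutator_mem_commutator hh (hNH hv)) hv
  have hHN : H ≤ Subgroup.normalizer ((⁅H, H⁆ : Subgroup G) : Set G) := fun h hh =>
    mem_normalizer_of_conj_mem_fin (hconjN h hh)
  obtain ⟨S, hS⟩ := Cfsg.Agent.Lib.Helper23.exists_isRPart ⁅H, H⁆ hnil p
  have hPS : (P : Subgroup G) ≤ Subgroup.normalizer (S : Set G) :=
    (hPH.trans hHN).trans hS.normalizer_le
  have hSP : S ≤ (P : Subgroup G) := by
    have h1 : IsPGroup p ((P : Subgroup G) ⊔ S : Subgroup G) :=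
      IsPGroup.to_sup_of_normal_right' P.isPGroup' hS.2.1 hPS
    have h2 := P.is_maximal' h1 le_sup_left
    rw [← h2]
    exact le_sup_right
  have hNHe : ⁅H, H⁆ ≤ He := by
    apply Cfsg.Agent.Lib.Helper23.le_of_pElements ⁅H, H⁆ He
    intro r hr _ x hx hxr
    by_cases hrp : r = p
    · rw [hrp] at hxr
      exact hPHe (hSP (hS.2.2 x hx hxr))
    · apply hCe
      rw [Subgroup.mem_centralizer_iff]
      intro y hy
      rw [Set.mem_singleton_iff] at hy
      rw [hy]
      have : Fact r.Prime := ⟨hr⟩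
      obtain ⟨k, hk⟩ := Cfsg.Agent.Lib.Helper23.exists_orderOf_eq_pow
        (P := Subgroup.zpowers x) hxr (Subgroup.mem_zpowers x)
      obtain ⟨j, hj⟩ := Cfsg.Agent.Lib.Helper23.exists_orderOf_eq_pow
        (P := Subgroup.zpowers e) hep (Subgroup.mem_zpowers e)
      have hco : (orderOf e).Coprime (orderOf x) := by
        rw [hk, hj]
        exact Nat.Coprime.pow _ _ ((Nat.coprime_primes Fact.out hr).mpr (Ne.symm hrp))
      exact Cfsg.Agent.Lib.Helper23.comm_of_coprime_orderOf hnil he hx hco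
  have hTHe : ⁅H, H⁆ ⊔ (P : Subgroup G) ≤ He := sup_le hNHe hPHe
  have hPT : Cfsg.Agent.Lib.Helper61.IsSylIn p (P : Subgroup G) (⁅H, H⁆ ⊔ (P : Subgroup G)) :=
    ⟨le_sup_right, P.isPGroup', fun Q hQ hPQ _ => P.is_maximal' hQ hPQ⟩
  intro h hh
  have hhT : h ∈ Subgroup.normalizer ((⁅H, H⁆ ⊔ (P : Subgroup G) : Subgroup G) : Set G) := by
    apply mem_normalizer_of_conj_mem_fin
    have hle : ⁅H, H⁆ ⊔ (P : Subgroup G) ≤
        (⁅H, H⁆ ⊔ (P : Subgroup G)).comap (MulAut.conj h).toMonoidHom := by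
      apply sup_le
      · intro v hv
        rw [Subgroup.mem_comap]
        simp only [MulEquiv.coe_toMonoidHom, MulAut.conj_apply]
        exact Subgroup.mem_sup_left (hconjN h hh v hv)
      · intro g hg
        rw [Subgroup.mem_comap]
        simp only [MulEquiv.coe_toMonoidHom, MulAut.conj_apply]
        have h1 : h * g * h⁻¹ = ⁅h, g⁆ * g := by simp [commutatorElement_def]
        rw [h1]
        exact Subgroup.mul_mem _
          (Subgroup.mem_sup_left (Subgroup.commutator_mem_commutator hh (hPH hg)))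
          (Subgroup.mem_sup_right hg)
    intro v hv
    have h2 := hle hv
    rw [Subgroup.mem_comap] at h2
    simpa only [MulEquiv.coe_toMonoidHom, MulAut.conj_apply] using h2
  obtain ⟨n, hn, hnh⟩ := Cfsg.Agent.Lib.Helper61.bg_frattini hPT hhT
  have h3 : h = n * (n⁻¹ * h) := by group
  rw [h3]
  exact He.mul_mem (hTHe hn) (hNP hnh)

/-- Lemma Z with the nilpotency hypothesis in the form delivered by `S1451` for the group `↥H`. -/
theorem lemma_Z' [Finite G] (p : ℕ) [Fact p.Prime] (H He : Subgroup G)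
    (hnil : Group.IsNilpotent ↥(commutator ↥H))
    (e : G) (he : e ∈ ⁅H, H⁆) (hep : IsPGroup p (Subgroup.zpowers e))
    (hCe : Subgroup.centralizer ({e} : Set G) ≤ He)
    (P : Sylow p G) (hPH : (P : Subgroup G) ≤ H) (hPHe : (P : Subgroup G) ≤ He)
    (hNP : Subgroup.normalizer ((P : Subgroup G) : Set G) ≤ He) : H ≤ He :=
  lemma_Z p H He (isNilpotent_commutator_of_subtype H hnil) e he hep hCe P hPH hPHe hNP

end Cfsg.Agent.Lib.Helper46.BG
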