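import Mathlib
import Cfsg.Prelude.Def_OddOrderLocal
import Cfsg.Agent.S1453
import Cfsg.Agent.S3977
import Cfsg.Agent.Lib.Helper23.PGroupEA
import Cfsg.Agent.Lib.Helper54.Frobenius
import Cfsg.Agent.Lib.Helper54.NarrowMax

/-!
Helper lemmas for the Bender–Glauberman chain (section 10):

* `nilpotent_of_forall_npc`: a finite group with a normal `p`-complement for every prime divisor
  `p` of its order is nilpotent.
* `ea_comap`, `card_comap_of_le_range`, `max_ea_comap`: transport of (maximal) elementary abelian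
  subgroups along an injective homomorphism.
* `isNarrow_of_max_ea`: for `p` odd, a `p`-group of rank at least three with a maximal elementary
  abelian subgroup of order `p ^ 2` is narrow.
-/

set_option autoImplicit false

namespace Cfsg.Agent.Lib.Helper46.BG

open Cfsg

/-- A finite group with a normal `p`-complement for every prime `p` dividing its order is
nilpotent. -/
theorem nilpotent_of_forall_npc {H : Type*} [Group H] [Finite H]
    (h : ∀ p : ℕ, p.Prime → p ∣ Nat.card H → Cfsg.HasNormalPComplement p H) :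
    Group.IsNilpotent H := by
  classical
  have key : ∀ (p : ℕ) (_hp : Fact p.Prime) (P : Sylow p H), (P : Subgroup H).Normal := by
    intro p hp P
    have hpp := hp.out
    have hex : ∀ q : {q : ℕ // q.Prime ∧ q ∣ Nat.card H ∧ q ≠ p},
        ∃ N : Subgroup H, N.Normal ∧ (Nat.card N).Coprime q.1 ∧ ∃ k, N.index = q.1 ^ k := by
      intro q
      haveI : Fact q.1.Prime := ⟨q.2.1⟩
      exact Cfsg.Agent.Lib.Helper54.hasNormalPComplement_iff.mp (h q.1 q.2.1 q.2.2.1)
    choose N hNn hNc hNi using hex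
    let L : Subgroup H := ⨅ q, N q
    have hLn : L.Normal := Subgroup.normal_iInf_normal hNn
    have hPL : (P : Subgroup H) ≤ L := by
      refine le_iInf fun q => ?_
      obtain ⟨k, hk⟩ := hNi q
      haveI := hNn q
      have h1 : (N q).relIndex (P : Subgroup H) ∣ q.1 ^ k := by
        rw [← hk]; exact Subgroup.relIndex_dvd_index_of_normal _ _
      have h2 : (N q).relIndex (P : Subgroup H) ∣ Nat.card (P : Subgroup H) :=
        Subgroup.relIndex_dvd_card _ _
      obtain ⟨n, hn⟩ := IsPGroup.iff_card.mp P.2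
      rw [hn] at h2
      have h3 : (N q).relIndex (P : Subgroup H) = 1 := by
        have hcop : (q.1 ^ k).Coprime (p ^ n) :=
          Nat.Coprime.pow _ _ ((Nat.coprime_primes q.2.1 hpp).mpr q.2.2.2)
        exact Nat.eq_one_of_dvd_coprimes hcop h1 h2
      exact Subgroup.relIndex_eq_one.mp h3
    have hLp : IsPGroup p L := by
      have hpos : Nat.card L ≠ 0 := Nat.card_pos.ne'
      have hL := Nat.eq_prime_pow_of_unique_prime_dvd hpos (p := p) (fun {d} hd hdvd => by
        by_contra hne
        have hdH : d ∣ Nat.card H := hdvd.trans (Subgroup.card_subgroup_dvd_card L)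
        have h1 : d ∣ Nat.card (N ⟨d, hd, hdH, hne⟩) :=
          hdvd.trans (Subgroup.card_dvd_of_le (iInf_le N ⟨d, hd, hdH, hne⟩))
        have h2 := hNc ⟨d, hd, hdH, hne⟩
        exact hd.ne_one (Nat.Coprime.eq_one_of_dvd h2.symm h1))
      exact IsPGroup.of_card hL
    have hEq : L = (P : Subgroup H) := P.is_maximal' hLp hPL
    rw [← hEq]; exact hLn
  exact ((Group.isNilpotent_of_finite_tfae (G := H)).out 3 0).mp key

/-- The preimage of an elementary abelian subgroup under an injective homomorphism is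
elementary abelian. -/
theorem ea_comap {R Γ : Type*} [Group R] [Group Γ] (p : ℕ) (ι : R →* Γ)
    (hι : Function.Injective ι) {A : Subgroup Γ} (hA : Cfsg.IsElementaryAbelian p A) :
    Cfsg.IsElementaryAbelian p (A.comap ι) := by
  refine ⟨⟨⟨?_⟩⟩, ?_⟩
  · rintro ⟨x, hx⟩ ⟨y, hy⟩
    apply Subtype.ext
    apply hι
    show ι (x * y) = ι (y * x)
    rw [map_mul, map_mul]
    exact Cfsg.Agent.Lib.Helper23.isEA_comm hA hx hy
  · intro x hx
    apply hι
    rw [map_pow, map_one]
    exact hA.2 _ hx

/-- The image of an elementary abelian subgroup is elementary abelian. -/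
theorem ea_map {R Γ : Type*} [Group R] [Group Γ] (p : ℕ) (ι : R →* Γ)
    {B : Subgroup R} (hB : Cfsg.IsElementaryAbelian p B) :
    Cfsg.IsElementaryAbelian p (B.map ι) := by
  refine ⟨⟨⟨?_⟩⟩, ?_⟩
  · rintro ⟨_, x, hx, rfl⟩ ⟨_, y, hy, rfl⟩
    apply Subtype.ext
    show ι x * ι y = ι y * ι x
    rw [← map_mul, ← map_mul, Cfsg.Agent.Lib.Helper23.isEA_comm hB hx hy]
  · rintro _ ⟨x, hx, rfl⟩
    rw [← map_pow, hB.2 x hx, map_one]

theorem card_comap_of_le_range {R Γ : Type*} [Group R] [Group Γ] (ι : R →* Γ)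
    (hι : Function.Injective ι) {A : Subgroup Γ} (hA : A ≤ ι.range) :
    Nat.card (A.comap ι) = Nat.card A := by
  rw [← Subgroup.card_map_of_injective hι, Subgroup.map_comap_eq, inf_eq_right.mpr hA]

/-- Maximality of an elementary abelian subgroup is inherited by the preimage under an injective
homomorphism whose range contains it. -/
theorem max_ea_comap {R Γ : Type*} [Group R] [Group Γ] (p : ℕ) (ι : R →* Γ)
    (hι : Function.Injective ι) {A : Subgroup Γ} (hAr : A ≤ ι.range)
    (hmax : ∀ B : Subgroup Γ, B ≤ ι.range → Cfsg.IsElementaryAbelian p B → A ≤ B → B = A)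
    (B' : Subgroup R) (hB' : Cfsg.IsElementaryAbelian p B') (hle : A.comap ι ≤ B') :
    B' = A.comap ι := by
  have h1 : B'.map ι = A := by
    apply hmax
    · rintro _ ⟨x, -, rfl⟩
      exact ⟨x, rfl⟩
    · exact ea_map p ι hB'
    · intro a ha
      obtain ⟨r, rfl⟩ := hAr ha
      exact ⟨r, hle ha, rfl⟩
  rw [← h1, Subgroup.comap_map_eq_self_of_injective hι]

/-- For `p` odd, a `p`-group of rank at least three having a maximal elementary abelian subgroup
of order `p ^ 2` is narrow. -/
theorem isNarrow_of_max_ea {R : Type*} [Group R] [Finite R] (p : ℕ) [hp : Fact p.Prime]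
    (hp2 : p ≠ 2) (hR : IsPGroup p R) (hr : ¬ Cfsg.PRankLE p 2 R)
    (E : Subgroup R) (hE : Cfsg.IsElementaryAbelian p E) (hE2 : Nat.card E = p ^ 2)
    (hEmax : ∀ B : Subgroup R, Cfsg.IsElementaryAbelian p B → E ≤ B → B = E) :
    Cfsg.IsNarrow p R := by
  classical
  have hpp : p.Prime := hp.out
  obtain ⟨hET, hZcard, -, hTchar, hTidx⟩ := Cfsg.Agent.S1453.result p hp2 hR hr E hE hE2 hEmax
  set W : Subgroup R :=
    Subgroup.closure {x : R | x ∈ Subgroup.upperCentralSeries R 2 ∧ x ^ p = 1} with hW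
  set T : Subgroup R := Subgroup.centralizer (W : Set R) with hT
  set Z : Subgroup R := Subgroup.closure {x : R | x ∈ Subgroup.center R ∧ x ^ p = 1} with hZ
  haveI : T.Normal := Subgroup.normal_of_characteristic T
  have hZc : Z ≤ Subgroup.center R := (Subgroup.closure_le _).mpr (fun x hx => hx.1)
  have hZe : ∀ z ∈ Z, z ^ p = 1 := by
    intro z hz
    induction hz using Subgroup.closure_induction with
    | mem x hx => exact hx.2
    | one => exact one_pow p
    | mul x y hx hy ihx ihy =>
      have hc : Commute x y := (Subgroup.mem_center_iff.mp (hZc hx) y).symm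
      rw [hc.mul_pow, ihx, ihy, one_mul]
    | inv x hx ih => rw [inv_pow, ih, inv_one]
  have hzpow : ∀ x : R, x ^ p = 1 → ∀ y ∈ Subgroup.zpowers x, y ^ p = 1 := by
    intro x hx y hy
    obtain ⟨k, rfl⟩ := Subgroup.mem_zpowers_iff.mp hy
    rw [← zpow_natCast, ← zpow_mul, mul_comm, zpow_mul, zpow_natCast, hx, one_zpow]
  have hMem : ∀ x : R, x ^ p = 1 → (∀ e ∈ E, e * x = x * e) → x ∈ E := by
    intro x hx hxc
    have hzp : Cfsg.IsElementaryAbelian p (Subgroup.zpowers x) := ⟨inferInstance, hzpow x hx⟩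
    have hsup := Cfsg.Agent.Lib.Helper23.isEA_sup hE hzp (by
      intro a ha b hb
      obtain ⟨k, rfl⟩ := Subgroup.mem_zpowers_iff.mp hb
      exact (Commute.zpow_right (hxc a ha) k))
    have h1 := hEmax _ hsup le_sup_left
    rw [← h1]
    exact Subgroup.mem_sup_right (Subgroup.mem_zpowers x)
  have hZE : Z ≤ E := fun z hz =>
    hMem z (hZe z hz) (fun e _ => Subgroup.mem_center_iff.mp (hZc hz) e)
  have hZT : Z ≤ T := fun z hz =>
    Subgroup.mem_centralizer_iff.mpr (fun w _ => Subgroup.mem_center_iff.mp (hZc hz) w)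
  obtain ⟨a, haE, haT⟩ := SetLike.not_le_iff_exists.mp hET
  have ha_p : a ^ p = 1 := hE.2 a haE
  have ha1 : a ≠ 1 := fun h => haT (h ▸ T.one_mem)
  have hord : orderOf a = p := orderOf_eq_prime ha_p ha1
  set R₀ : Subgroup R := Subgroup.zpowers a with hR₀
  have hR₀card : Nat.card R₀ = p := by rw [hR₀, Nat.card_zpowers, hord]
  have hR₀T : R₀ ⊓ T = ⊥ := by
    rw [eq_bot_iff]
    rintro y ⟨hy0, hyT⟩
    rw [Subgroup.mem_bot]
    by_contra hy1
    have hyp : y ^ p = 1 := hzpow a ha_p y hy0
    have hoy : orderOf y = p := orderOf_eq_prime hyp hy1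
    have hle : Subgroup.zpowers y ≤ R₀ := Subgroup.zpowers_le.mpr hy0
    have heq : Subgroup.zpowers y = R₀ :=
      Subgroup.eq_of_le_of_card_ge hle (by rw [hR₀card, Nat.card_zpowers, hoy])
    have haz : a ∈ Subgroup.zpowers y := heq ▸ Subgroup.mem_zpowers a
    exact haT ((Subgroup.zpowers_le.mpr hyT) haz)
  have hZR₀ : Z ⊔ R₀ ≤ E := sup_le hZE (Subgroup.zpowers_le.mpr haE)
  have hEeq : Z ⊔ R₀ = E := by
    apply Subgroup.eq_of_le_of_card_ge hZR₀
    rw [hE2]
    have hd1 : Nat.card (Z ⊔ R₀ : Subgroup R) ∣ p ^ 2 := hE2 ▸ Subgroup.card_dvd_of_le hZR₀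
    have hd2 : p ∣ Nat.card (Z ⊔ R₀ : Subgroup R) := hZcard ▸ Subgroup.card_dvd_of_le le_sup_left
    obtain ⟨m, hm, hcard⟩ := (Nat.dvd_prime_pow hpp).mp hd1
    interval_cases m
    · rw [hcard, pow_zero] at hd2
      exact absurd (Nat.le_of_dvd one_pos hd2) (by have := hpp.two_le; omega)
    · exfalso
      have heq : Z = Z ⊔ R₀ :=
        Subgroup.eq_of_le_of_card_ge le_sup_left (by rw [hcard, pow_one, hZcard])
      apply haT
      apply hZT
      rw [heq]
      exact Subgroup.mem_sup_right (Subgroup.mem_zpowers a)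
    · exact hcard.ge
  have hΩ : ∀ x ∈ T, a * x = x * a → x ^ p = 1 → x ∈ Z := by
    intro x hxT hxa hxp
    have hle : Z ⊔ R₀ ≤ Subgroup.centralizer {x} := by
      apply sup_le
      · intro z hz
        rw [Subgroup.mem_centralizer_iff]
        intro h hh
        rw [Set.mem_singleton_iff] at hh
        subst hh
        exact Subgroup.mem_center_iff.mp (hZc hz) h
      · rw [hR₀, Subgroup.zpowers_le, Subgroup.mem_centralizer_iff]
        intro h hh
        rw [Set.mem_singleton_iff] at hh
        subst hh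
        exact hxa.symm
    have hxE : x ∈ E := by
      apply hMem x hxp
      intro e he
      rw [← hEeq] at he
      exact (Subgroup.mem_centralizer_iff.mp (hle he) x rfl).symm
    rw [← hEeq] at hxE
    obtain ⟨z, hz, r, hr, hxzr⟩ := Cfsg.Agent.Lib.Helper54.mem_sup_of_commute Z R₀
      (fun z hz r _ => (Subgroup.mem_center_iff.mp (hZc hz) r).symm) hxE
    have hrT : r ∈ T := by
      have : r = z⁻¹ * x := by rw [hxzr]; group
      rw [this]
      exact T.mul_mem (T.inv_mem (hZT hz)) hxT
    have hr1 : r = 1 := by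
      have : r ∈ R₀ ⊓ T := ⟨hr, hrT⟩
      rw [hR₀T] at this
      exact Subgroup.mem_bot.mp this
    rw [hxzr, hr1, mul_one]
    exact hz
  set R₁ : Subgroup R := T ⊓ Subgroup.centralizer {a} with hR₁
  have hcyc : IsCyclic ↥R₁ := by
    obtain ⟨m, hm⟩ := IsPGroup.iff_card.mp (hR.to_subgroup R₁)
    have key : ∀ H : Subgroup ↥R₁, Nat.card H = p ^ 1 → H.map R₁.subtype = Z := by
      intro H hH
      rw [pow_one] at hH
      apply Subgroup.eq_of_le_of_card_ge
      · rintro _ ⟨h, hh, rfl⟩
        apply hΩ _ h.2.1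
        · exact Subgroup.mem_centralizer_iff.mp h.2.2 a rfl
        · have h1 : (⟨h, hh⟩ : H) ^ Nat.card H = 1 := pow_card_eq_one'
          rw [hH] at h1
          have h2 := congrArg (fun z : H => ((z : R₁) : R)) h1
          simpa using h2
      · rw [Subgroup.card_map_of_injective R₁.subtype_injective, hH, hZcard]
    rcases Nat.lt_or_ge m 2 with hm2 | hm2
    · interval_cases m
      · rw [pow_zero] at hm
        haveI : Subsingleton ↥R₁ := (Finite.card_le_one_iff_subsingleton).mp hm.le
        exact isCyclic_of_subsingleton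
      · rw [pow_one] at hm
        exact isCyclic_of_prime_card hm
    · exact Cfsg.Agent.S3977.result p m 1 hpp hm le_rfl (by omega) (Or.inl hp2)
        (fun H K hH hK => Subgroup.map_injective R₁.subtype_injective
          ((key H hH).trans (key K hK).symm))
  have hcomm : ∀ x ∈ R₀, ∀ y ∈ R₁, x * y = y * x := by
    intro x hx y hy
    obtain ⟨j, rfl⟩ := Subgroup.mem_zpowers_iff.mp hx
    have hay : a * y = y * a := Subgroup.mem_centralizer_iff.mp hy.2 a rfl
    exact (Commute.zpow_left hay j)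
  have htop : R₀ ⊔ T = ⊤ := by
    have hd : (R₀ ⊔ T).index ∣ p := hTidx ▸ Subgroup.index_dvd_of_le le_sup_right
    rcases (Nat.dvd_prime hpp).mp hd with h1 | h1
    · exact Subgroup.index_eq_one.mp h1
    · exfalso
      have h2 := Subgroup.relIndex_mul_index (le_sup_right : T ≤ R₀ ⊔ T)
      rw [h1, hTidx] at h2
      have h3 : T.relIndex (R₀ ⊔ T) = 1 := by
        have hppos := hpp.pos
        nlinarith
      have h4 : R₀ ⊔ T ≤ T := Subgroup.relIndex_eq_one.mp h3
      exact haT (h4 (Subgroup.mem_sup_left (Subgroup.mem_zpowers a)))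
  have hsup : R₀ ⊔ R₁ = Subgroup.centralizer (R₀ : Set R) := by
    apply le_antisymm
    · apply sup_le
      · intro y hy
        rw [Subgroup.mem_centralizer_iff]
        intro h hh
        obtain ⟨i, rfl⟩ := Subgroup.mem_zpowers_iff.mp hy
        obtain ⟨j, rfl⟩ := Subgroup.mem_zpowers_iff.mp hh
        exact (Commute.zpow_zpow_self a j i)
      · intro y hy
        rw [Subgroup.mem_centralizer_iff]
        intro h hh
        exact hcomm h hh y hy
    · intro x hx
      have hxa : a * x = x * a :=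
        Subgroup.mem_centralizer_iff.mp hx a (Subgroup.mem_zpowers a)
      have hx' : x ∈ (↑(R₀ ⊔ T) : Set R) := by
        rw [htop]; exact Subgroup.mem_top x
      rw [Subgroup.mul_normal R₀ T] at hx'
      obtain ⟨r, hr, t, ht, rfl⟩ := Set.mem_mul.mp hx'
      refine Subgroup.mul_mem_sup hr ⟨ht, ?_⟩
      refine Subgroup.mem_centralizer_iff.mpr ?_
      intro h hh
      rw [Set.mem_singleton_iff] at hh
      subst hh
      have hr' : r ∈ R₀ := hr
      obtain ⟨j, rfl⟩ := Subgroup.mem_zpowers_iff.mp hr'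
      have h1 : h * h ^ j = h ^ j * h := (Commute.self_zpow h j)
      calc h * t = (h ^ j)⁻¹ * (h * (h ^ j * t)) := by rw [← mul_assoc h, h1]; group
        _ = (h ^ j)⁻¹ * (h ^ j * t * h) := by rw [hxa]
        _ = t * h := by group
  have hinf : R₀ ⊓ R₁ = ⊥ := by
    rw [eq_bot_iff, ← hR₀T]
    exact inf_le_inf_left R₀ inf_le_left
  exact Or.inr ⟨R₀, R₁, hR₀card, hcyc, hinf, hcomm, hsup⟩

end Cfsg.Agent.Lib.Helper46.BG
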